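import Cfsg.Agent.Lib.Chev.Parab
import Cfsg.Agent.Lib.Twisted.Bruhat

/-!
# The centraliser of the unipotent radical of a parabolic subgroup

If `g` in the Chevalley group centralises `U_J` for a proper `J`, then `g` lies in `U`.
(Borel–Tits in the strong form for standard parabolics.)
-/

set_option autoImplicit false
set_option linter.unusedSectionVars false
set_option linter.unusedVariables false

namespace Cfsg.Agent.Lib.ChevX.CentRad

open scoped MatrixGroups Matrix
open Cfsg Lie ChevalleyDatum
open Cfsg.Agent.Lib.Chev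
open Tables Tables2 Tables3 Raise Basic AxBasic Torus Products Products2 Mono1 Mono2 Mono3 Bn Parab

variable {D : ChevalleyDatum} {F : Type*} [Field F]

/-- For every pair of distinct nodes `i`, `k` there are two roots involving `i` with difference `p_k`. -/
def spanCheck (D : ChevalleyDatum) : Bool :=
  allBelow D.rank fun i => allBelow D.rank fun k =>
    decide (k = i) || anyBelow D.nroots fun s =>
      decide (0 < coef D s i) && (D.chainRoot (D.simple k) s 1).isSome

theorem spanCheck_of_mem (hD : D ∈ [chevG2, chevB2, chevD4, chevF4, chevE6, chevE7, chevE8]) :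
    spanCheck D = true := by
  simp only [List.mem_cons, List.not_mem_nil, or_false] at hD
  rcases hD with rfl | rfl | rfl | rfl | rfl | rfl | rfl <;> decide +kernel

lemma exists_root_of_check (h : Tab D) (hc : spanCheck D = true) {i k : ℕ} (hi : i < D.rank) (hk : k < D.rank)
    (hki : k ≠ i) : ∃ r s, r < D.nroots ∧ s < D.nroots ∧ 0 < coef D r i ∧ 0 < coef D s i ∧
      ∀ j, j < D.rank → coef D r j = coef D s j + if j = k then 1 else 0 := by
  have h1 := allBelow_spec (allBelow_spec hc i hi) k hk
  simp only [Bool.or_eq_true, decide_eq_true_eq] at h1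
  rcases h1 with h1 | h1
  · exact absurd h1 hki
  · obtain ⟨s, hs, h2⟩ := anyBelow_spec h1
    simp only [Bool.and_eq_true, decide_eq_true_eq] at h2
    obtain ⟨hpos, hsome⟩ := h2
    obtain ⟨r, hr⟩ := Option.isSome_iff_exists.mp hsome
    obtain ⟨hr1, hr2⟩ := chainRoot_spec h (h.simple_lt k hk) le_rfl hr
    have key : ∀ j, j < D.rank → coef D r j = coef D s j + if j = k then 1 else 0 := by
      intro j hj
      rw [hr2 j hj, h.coef_simple k hk j hj]
      simp
    refine ⟨r, s, hr1, hs, ?_, hpos, key⟩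
    rw [key i hi, if_neg (Ne.symm hki)]
    omega

variable (h : Tab D) (h2 : Tab2 D) (ax : Ax D F)

include h h2 in
/-- A conjugate of a root element under `U` which is a root element is the same root element. -/
lemma conj_U_root {u : GL D.Idx F} (hu : u ∈ D.posUnipotent F) {r s : ℕ} (hr : D.IsPosRoot r)
    (hs : s < D.nroots) {t v : F} (ht : t ≠ 0) (he : u * xG ax r t * u⁻¹ = xG ax s v) :
    s = r ∧ v = t := by
  have hr0 := hr.1
  obtain ⟨i, hi, hci⟩ := exists_cast_ne_zero (F := F) _ _ (h2.prim r hr0)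
  have hnr := h.neg_lt r hr0
  set x := xG ax r t with hx
  -- the grading
  have hgr : (1 : ℤ) ≤ lin D (fun _ => 1) r := by
    have := ht_pos h hr
    exact this
  have hu1 : Raises (grade D fun _ => 1) 1 ((u : Matrix D.Idx D.Idx F) - 1) :=
    Unipotent.posUnipotent_le_raising h hu
  have hx1 : Raises (grade D fun _ => 1) (lin D (fun _ => 1) r) ((x : Matrix D.Idx D.Idx F) - 1) :=
    raises_x h hr0 hgr le_rfl t
  have hc := raises_comm le_rfl hgr u x hu1 hx1
  -- `u x u⁻¹ = [u, x] x`
  have hcx : u * x * u⁻¹ = (u * x * u⁻¹ * x⁻¹) * x := by group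
  have h0x : Raises (grade D fun _ => 1) 0 (x : Matrix D.Idx D.Idx F) :=
    raises_zero_of_mem (by omega) hx1
  have hdiff : Raises (grade D fun _ => 1) (1 + lin D (fun _ => 1) r)
      (((u * x * u⁻¹ : GL D.Idx F) : Matrix D.Idx D.Idx F) - (x : Matrix D.Idx D.Idx F)) := by
    have e : ((u * x * u⁻¹ : GL D.Idx F) : Matrix D.Idx D.Idx F) - (x : Matrix D.Idx D.Idx F) =
        (((u * x * u⁻¹ * x⁻¹ : GL D.Idx F) : Matrix D.Idx D.Idx F) - 1) * (x : Matrix D.Idx D.Idx F) := by
      conv_lhs => rw [hcx]
      rw [Units.val_mul, sub_mul, one_mul]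
    rw [e]
    simpa using hc.mul h0x
  -- the entry
  have hentry : ((u * x * u⁻¹ : GL D.Idx F) : Matrix D.Idx D.Idx F) (Sum.inl ⟨i, hi⟩) (Sum.inr ⟨D.neg r, hnr⟩) =
      (x : Matrix D.Idx D.Idx F) (Sum.inl ⟨i, hi⟩) (Sum.inr ⟨D.neg r, hnr⟩) := by
    by_contra hne
    have hne' : (((u * x * u⁻¹ : GL D.Idx F) : Matrix D.Idx D.Idx F) - (x : Matrix D.Idx D.Idx F))
        (Sum.inl ⟨i, hi⟩) (Sum.inr ⟨D.neg r, hnr⟩) ≠ 0 := by
      rw [Matrix.sub_apply]
      exact sub_ne_zero.mpr hne
    have := hdiff _ _ hne'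
    simp only [grade_inl, grade_inr] at this
    have h1 := lin_neg h (fun _ => 1) hr0
    omega
  rw [he] at hentry
  simp only [xG_val, hx] at hentry
  rw [x_row_inl hr0, x_row_inl hs] at hentry
  simp only at hentry
  have hne : (⟨D.neg r, hnr⟩ : Fin D.nroots) ≠ ⟨r, hr0⟩ := by
    intro e; exact h.neg_ne r hr0 (Fin.mk.inj_iff.mp e)
  rw [if_neg hne] at hentry
  have e1 : D.neg r = D.negIdx.getD r 0 := rfl
  simp only [← e1, if_true] at hentry
  have h1 : ((D.coroot.getD r #[]).getD i 0 : F) * t ≠ 0 := mul_ne_zero hci ht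
  split_ifs at hentry with h3 h4
  · exact absurd hentry.symm h1
  · have e2 : D.neg s = D.negIdx.getD s 0 := rfl
    rw [← e2] at h4
    have hrs : r = s := by
      have := congrArg D.neg h4
      rwa [h.neg_neg r hr0, h.neg_neg s hs] at this
    subst hrs
    exact ⟨rfl, mul_left_cancel₀ hci hentry⟩
  · exact absurd hentry.symm h1

include h h2 in
/-- A monomial element centralising the root subgroups through `i` is trivial. -/
theorem monomial_eq_one (hc : spanCheck D = true) {i : ℕ} (hi : i < D.rank) {n : GL D.Idx F}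
    (hn : n ∈ D.monomialSubgroup F) {π : Equiv.Perm (Fin D.nroots)} {c : Fin D.nroots → Fˣ}
    (H : IsNor h ax n π c)
    (hfix : ∀ s : Fin D.nroots, 0 < coef D s i → π s = s ∧ (c s : F) = 1) : n = 1 := by
  -- the word
  have hn' := hn
  rw [monomial_eq_monoS h h2 ax] at hn'
  obtain ⟨a, ha, l, hl, hna⟩ := monoS_form h h2 ax hn'
  obtain ⟨c1, hc1⟩ := isNor_mul_nw h h2 ax ha hl
  rw [← hna] at hc1
  have hπ : π = wPw h l := (IsNor.unique h ax h2 H hc1).1
  have hval : ∀ s : Fin D.nroots, ((π s : Fin D.nroots) : ℕ) = wWord D l s := by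
    intro s
    rw [hπ, wPw_val h hl]
  -- fixing roots through `i`
  have hw : ∀ r, (hr : r < D.nroots) → 0 < coef D r i → wWord D l r = r := by
    intro r hr hpos
    have := (hfix ⟨r, hr⟩ hpos).1
    rw [← hval ⟨r, hr⟩, this]
  have hsimple : ∀ k, k < D.rank → wWord D l (D.simple k) = D.simple k := by
    intro k hk
    by_cases hki : k = i
    · subst hki
      apply hw _ (h.simple_lt k hk)
      rw [h.coef_simple k hk k hk, if_pos rfl]
      norm_num
    · obtain ⟨r, r', hr, hr'lt, hpos, hpos', hcoefr⟩ := exists_root_of_check h hc hi hk hki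
      have h1 := hw r hr hpos
      have h3 := hw r' hr'lt hpos'
      apply eq_of_coef_eq h (wWord_lt h hl (h.simple_lt k hk)) (h.simple_lt k hk)
      intro j hj
      have h4 := coef_wWord h hl hr hj
      have h5 := coef_wWord h hl hr'lt hj
      rw [h1] at h4
      rw [h3] at h5
      have h6 : ∑ m ∈ Finset.range D.rank, coef D r m * coef D (wWord D l (D.simple m)) j =
          ∑ m ∈ Finset.range D.rank, coef D r' m * coef D (wWord D l (D.simple m)) j +
            coef D (wWord D l (D.simple k)) j := by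
        rw [Finset.sum_congr rfl (fun m hm => by
          rw [hcoefr m (Finset.mem_range.mp hm), add_mul])]
        rw [Finset.sum_add_distrib]
        congr 1
        rw [Finset.sum_eq_single k]
        · simp
        · intro b _ hb
          simp [hb]
        · intro hk'
          exact absurd (Finset.mem_range.mpr hk) hk'
      rw [h6, ← h5, hcoefr j hj] at h4
      rw [h.coef_simple k hk j hj]
      omega
  -- all roots are fixed
  have hall : ∀ s, s < D.nroots → wWord D l s = s := by
    intro s hs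
    apply eq_of_coef_eq h (wWord_lt h hl hs) hs
    intro j hj
    rw [coef_wWord h hl hs hj]
    rw [Finset.sum_congr rfl (fun m hm => by
      rw [hsimple m (Finset.mem_range.mp hm), h.coef_simple m (Finset.mem_range.mp hm) j hj])]
    simp only [mul_ite, mul_one, mul_zero]
    rw [Finset.sum_ite_eq]
    simp [hj]
  have hπ1 : π = 1 := by
    apply Equiv.ext
    intro s
    apply Fin.ext
    rw [hval s, hall s s.isLt]
    rfl
  -- so it is in `H`
  have hH : n ∈ D.diagonalSubgroup F := by
    apply mem_H_of_pos h h2 ax hn H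
    intro s hs
    rw [hπ1]
    exact hs
  obtain ⟨y, rfl⟩ := exists_tor_of_mem ax h hH
  -- the character is trivial on the roots through `i`
  have hchi : ∀ r, r < D.nroots → 0 < coef D r i → chi D y r = 1 := by
    intro r hr hpos
    have h1 := tor_conj_xG ax h y hr 1
    have h3 := H.conj ⟨r, hr⟩ 1
    simp only at h3
    rw [h3] at h1
    rw [(hfix ⟨r, hr⟩ hpos).1, (hfix ⟨r, hr⟩ hpos).2] at h1
    simp only [mul_one, one_mul] at h1
    have h4 := (xG_eq_iff ax h h2 hr hr one_ne_zero h1).2
    exact (Units.ext h4).symm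
  have hchi_mul : ∀ (z : ℕ → Fˣ) (k : ℕ), k < D.rank → chi D z (D.simple k) = z k := by
    intro z k hk
    simp only [chi]
    rw [Finset.prod_eq_single k]
    · rw [h.coef_simple k hk k hk, if_pos rfl]
      simp
    · intro b hb hbk
      rw [h.coef_simple k hk b (Finset.mem_range.mp hb), if_neg hbk]
      simp
    · intro hk'
      exact absurd (Finset.mem_range.mpr hk) hk'
  have hy : ∀ k, k < D.rank → y k = 1 := by
    intro k hk
    by_cases hki : k = i
    · subst hki
      rw [← hchi_mul y k hk]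
      apply hchi _ (h.simple_lt k hk)
      rw [h.coef_simple k hk k hk, if_pos rfl]
      norm_num
    · obtain ⟨r, r', hr, hr'lt, hpos, hpos', hcoefr⟩ := exists_root_of_check h hc hi hk hki
      have h1 := hchi r hr hpos
      have h3 := hchi r' hr'lt hpos'
      have h4 : chi D y r = chi D y r' * y k := by
        simp only [chi]
        rw [Finset.prod_congr rfl (fun m hm => by
          rw [hcoefr m (Finset.mem_range.mp hm), zpow_add])]
        rw [Finset.prod_mul_distrib]
        congr 1
        rw [Finset.prod_eq_single k]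
        · simp
        · intro b _ hb
          simp [hb]
        · intro hk'
          exact absurd (Finset.mem_range.mpr hk) hk'
      rw [h1, h3, one_mul] at h4
      exact h4.symm
  have hty : tor D y = (1 : GL D.Idx F) := by
    have : y = fun j => if j < D.rank then (1 : Fˣ) else y j := by
      funext j
      by_cases hj : j < D.rank
      · simp [hj, hy j hj]
      · simp [hj]
    apply Units.ext
    apply Matrix.ext
    intro a b
    have hchi1 : ∀ s : ℕ, chi D y s = 1 := by
      intro s
      simp only [chi]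
      apply Finset.prod_eq_one
      intro m hm
      rw [hy m (Finset.mem_range.mp hm), one_zpow]
    simp only [tor, diagG_val, torD, Units.val_one]
    cases a with
    | inl a =>
      cases b with
      | inl b => simp [Matrix.diagonal_apply, Matrix.one_apply]
      | inr b => simp [Matrix.diagonal_apply, Matrix.one_apply]
    | inr a =>
      cases b with
      | inl b => simp [Matrix.diagonal_apply, Matrix.one_apply]
      | inr b => simp [Matrix.diagonal_apply, Matrix.one_apply, hchi1]
  exact hty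

include h h2 ax in
/-- An element of the group centralising `U_J`, `J` proper, is in `U`. -/
theorem mem_U_of_commute (hc : spanCheck D = true) {J : Set ℕ} {i : ℕ} (hi : i < D.rank) (hiJ : i ∉ J)
    {g : GL D.Idx F} (hg : g ∈ D.group F)
    (hcomm : ∀ z ∈ D.unipotentRadical F J, g * z = z * g) : g ∈ D.posUnipotent F := by
  obtain ⟨b₁, hb₁, n, hn, b₂, hb₂, rfl⟩ := Twisted.Bruhat.exists_bruhat h h2 ax hg
  obtain ⟨u₁, hu₁, a₁, ha₁, rfl⟩ := (mem_borel_iff ax h).mp hb₁
  obtain ⟨u₂, hu₂, a₂, ha₂, e₂⟩ := (mem_borel_iff ax h).mp (Subgroup.inv_mem _ hb₂)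
  -- rewrite `b₂ = a u`
  have hb₂' : b₂ = a₂⁻¹ * u₂⁻¹ := by
    have := congrArg (·⁻¹) e₂
    simpa using this
  subst hb₂'
  set n' := a₁ * n * a₂⁻¹ with hn'
  have hdiagN : D.diagonalSubgroup F ≤ D.monomialSubgroup F := le_sup_left
  have hn'mem : n' ∈ D.monomialSubgroup F :=
    Subgroup.mul_mem _ (Subgroup.mul_mem _ (hdiagN ha₁) hn) (Subgroup.inv_mem _ (hdiagN ha₂))
  have hgform : u₁ * a₁ * n * (a₂⁻¹ * u₂⁻¹) = u₁ * n' * u₂⁻¹ := by
    rw [hn']; group
  rw [hgform] at hcomm ⊢
  set u := u₂⁻¹ * u₁ with hu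
  have huU : u ∈ D.posUnipotent F := Subgroup.mul_mem _ (Subgroup.inv_mem _ hu₂) hu₁
  -- `u₁` normalises `U_J`
  have hU_le : D.posUnipotent F ≤ D.parabolicSubgroup F J :=
    le_trans (le_sup_left : D.posUnipotent F ≤ D.borelSubgroup F) (le_sup_left : D.borelSubgroup F ≤ D.parabolicSubgroup F J)
  have hnorm := parabolic_le_normalizer h h2 ax J (hU_le hu₁)
  -- `n' u` centralises the root elements through `i`
  have hr_mem : ∀ r, r < D.nroots → 0 < coef D r i → ∀ t, xG ax r t ∈ D.unipotentRadical F J := by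
    intro r hr hpos t
    rw [unipotentRadical_eq h h2 ax]
    refine xG_mem_rootClosure ax ⟨isPos_of_coef_pos h hr hi hpos, fun hin => ?_⟩ t
    have := (inRootSub_iff h hr).mp hin i hi hiJ
    omega
  have hcomm' : ∀ r, r < D.nroots → 0 < coef D r i → ∀ t, n' * u * xG ax r t = xG ax r t * (n' * u) := by
    intro r hr hpos t
    have hz : u₁ * xG ax r t * u₁⁻¹ ∈ D.unipotentRadical F J :=
      (Subgroup.mem_normalizer_iff.mp hnorm _).mp (hr_mem r hr hpos t)
    have h1 := hcomm _ hz
    have h3 : u₁ * (n' * u * xG ax r t) * u₁⁻¹ = u₁ * (xG ax r t * (n' * u)) * u₁⁻¹ := by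
      calc u₁ * (n' * u * xG ax r t) * u₁⁻¹
          = u₁ * n' * u₂⁻¹ * (u₁ * xG ax r t * u₁⁻¹) := by rw [hu]; group
        _ = (u₁ * xG ax r t * u₁⁻¹) * (u₁ * n' * u₂⁻¹) := h1
        _ = u₁ * (xG ax r t * (n' * u)) * u₁⁻¹ := by rw [hu]; group
    exact mul_left_cancel (mul_right_cancel h3)
  -- the monomial element
  have hn'inv : n'⁻¹ ∈ D.monomialSubgroup F := Subgroup.inv_mem _ hn'mem
  obtain ⟨π, c, H⟩ := exists_isNor h h2 ax hn'inv
  have hfix : ∀ s : Fin D.nroots, 0 < coef D s i → π s = s ∧ (c s : F) = 1 := by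
    intro s hpos
    have hs := isPos_of_coef_pos h s.isLt hi hpos
    have h1 := H.conj s 1
    rw [inv_inv] at h1
    have h3 : u * xG ax s 1 * u⁻¹ = xG ax (π s) ((c s : F) * 1) := by
      rw [← h1]
      have := hcomm' s s.isLt hpos 1
      calc u * xG ax s 1 * u⁻¹ = n'⁻¹ * (n' * u * xG ax s 1) * u⁻¹ := by group
        _ = n'⁻¹ * (xG ax s 1 * (n' * u)) * u⁻¹ := by rw [this]
        _ = n'⁻¹ * xG ax s 1 * n' := by group
    obtain ⟨e1, e3⟩ := conj_U_root h h2 ax huU hs (π s).isLt one_ne_zero h3
    exact ⟨Fin.ext e1, by simpa using e3⟩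
  have hone := monomial_eq_one h h2 ax hc hi hn'inv H hfix
  have hone' : n' = 1 := by simpa using hone
  rw [hone', mul_one]
  exact Subgroup.mul_mem _ hu₁ (Subgroup.inv_mem _ hu₂)

end Cfsg.Agent.Lib.ChevX.CentRad
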